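import Mathlib
import Cfsg.Agent.Lib.Helper12.PHyp.T2EDefs

/-!
# PHYP (S5974), regime [T2E], package [SUMPLUS]: orthogonal sums of nondegenerate plus-type
subspaces (any characteristic).
-/

set_option autoImplicit false

namespace Cfsg.Agent.Lib.Helper20.PHyp

open Cfsg.Agent.Lib.Helper23.OHyp Cfsg.Agent.Lib.Helper12.PHyp Module

universe u

theorem pkgSumPlus : PkgSumPlus.{u} := by
  intro F _ ι _ _ Q hQ W₁ W₂ hN1 hN2 hP hPl1 hPl2
  classical
  have hpc : ∀ a b : ι → F, QuadraticMap.polar Q a b = QuadraticMap.polar Q b a :=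
    QuadraticMap.polar_comm Q
  have hdisj : Disjoint W₁ W₂ := by
    rw [Submodule.disjoint_def]
    intro w h1 h2'
    by_contra hw
    obtain ⟨⟨x, hx, hxw⟩, -⟩ := hN1 w h1 hw
    exact hxw (hP x hx w h2')
  have hNd : Nd Q (W₁ ⊔ W₂) := by
    intro w hw hw0
    obtain ⟨w₁, hw₁, w₂, hw₂, rfl⟩ := Submodule.mem_sup.mp hw
    by_cases h1 : w₁ = 0
    · have h20 : w₂ ≠ 0 := by
        rintro rfl
        apply hw0
        rw [h1]
        simp
      obtain ⟨⟨x, hx, hxw⟩, -⟩ := hN2 w₂ hw₂ h20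
      have key : QuadraticMap.polar Q x (w₁ + w₂) ≠ 0 := by
        rw [hQ.polar_bilinear.add_right, hpc x w₁, hP w₁ hw₁ x hx, zero_add]
        exact hxw
      exact ⟨⟨x, Submodule.mem_sup_right hx, key⟩,
        ⟨x, Submodule.mem_sup_right hx, by rw [hpc]; exact key⟩⟩
    · obtain ⟨⟨x, hx, hxw⟩, -⟩ := hN1 w₁ hw₁ h1
      have key : QuadraticMap.polar Q x (w₁ + w₂) ≠ 0 := by
        rw [hQ.polar_bilinear.add_right, hP x hx w₂ hw₂, add_zero]
        exact hxw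
      exact ⟨⟨x, Submodule.mem_sup_left hx, key⟩,
        ⟨x, Submodule.mem_sup_left hx, by rw [hpc]; exact key⟩⟩
  have hdim : finrank F ↥(W₁ ⊔ W₂) = finrank F W₁ + finrank F W₂ := by
    have h := Submodule.finrank_sup_add_finrank_inf_eq W₁ W₂
    rw [disjoint_iff.mp hdisj, finrank_bot] at h
    omega
  refine ⟨hNd, ?_, hdim⟩
  obtain ⟨U₁, hU1, hts1, hf1⟩ := hPl1
  obtain ⟨U₂, hU2, hts2, hf2⟩ := hPl2
  refine ⟨U₁ ⊔ U₂, sup_le_sup hU1 hU2, ?_, ?_⟩
  · intro w hw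
    obtain ⟨u₁, hu₁, u₂, hu₂, rfl⟩ := Submodule.mem_sup.mp hw
    have h := hP u₁ (hU1 hu₁) u₂ (hU2 hu₂)
    unfold QuadraticMap.polar at h
    rw [hts1 u₁ hu₁, hts2 u₂ hu₂] at h
    simpa using h
  · have hd : Disjoint U₁ U₂ := hdisj.mono hU1 hU2
    have h := Submodule.finrank_sup_add_finrank_inf_eq U₁ U₂
    rw [disjoint_iff.mp hd, finrank_bot] at h
    rw [hdim]
    omega

end Cfsg.Agent.Lib.Helper20.PHyp
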