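import Mathlib
import Cfsg.Agent.Lib.Helper12.PHyp.T2EDefs
import Cfsg.Agent.Lib.Helper12.OHyp.ESim
import Cfsg.Agent.Lib.Helper99.Quad
import Cfsg.Agent.Lib.Helper87.OHyp.Perp
import Cfsg.Agent.Lib.Helper94.Refl
import Cfsg.Agent.Lib.Helper20.PHyp.SumPlus

/-!
# PHYP (S5974), regime [T2E], package [GEOM2]: in characteristic 2 a nondegenerate subspace `C`
contains nondegenerate plus-type subspaces of every even dimension `e` with `e + 2 ≤ dim C`.
-/

set_option autoImplicit false

namespace Cfsg.Agent.Lib.Helper20.PHyp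

open Cfsg.Agent.Lib.Helper23.OHyp Cfsg.Agent.Lib.Helper12.PHyp Module

universe u

theorem pkgGeom2 : PkgGeom2.{u} := by
  intro F _ _ ι _ _ Q hQ h2 C hC e he
  obtain ⟨k, rfl⟩ := he
  induction k generalizing C with
  | zero =>
    intro _
    refine ⟨⊥, bot_le, ?_, ?_, ?_⟩
    · intro w hw hw0
      exact absurd ((Submodule.mem_bot F).mp hw) hw0
    · refine ⟨⊥, le_rfl, ?_, by simp⟩
      intro w hw
      rw [(Submodule.mem_bot F).mp hw]
      exact Cfsg.Agent.Lib.Helper94.Q_zero hQ
    · simp
  | succ k ih =>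
    intro hle
    have hB := hQ.polar_bilinear
    have hpc : ∀ a b : ι → F, QuadraticMap.polar Q a b = QuadraticMap.polar Q b a :=
      QuadraticMap.polar_comm Q
    have hself : ∀ v : ι → F, QuadraticMap.polar Q v v = 0 := fun v => by
      have h := Cfsg.Agent.Lib.Helper94.pol_self hQ v
      rw [h2, zero_mul] at h
      exact h
    have hz0l : ∀ v : ι → F, QuadraticMap.polar Q 0 v = 0 := fun v => by
      have h := hB.smul_left 0 v v
      rwa [zero_smul, zero_mul] at h
    -- a nonzero singular vector of `C`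
    obtain ⟨QF, hQF, -⟩ := Cfsg.Agent.Lib.Helper12.OHyp.esim_exists_qf hQ
    obtain ⟨u, huC, hu0, hQu⟩ := Cfsg.Agent.Lib.Helper99.exists_isotropic QF C (by omega)
    have hQu' : Q u = 0 := by
      rw [← hQF]
      exact hQu
    obtain ⟨-, w, hwC, hBuw⟩ := hC u huC hu0
    have hexp1 : ∀ a b : F,
        QuadraticMap.polar Q (a • u + b • w) u = b * QuadraticMap.polar Q u w := by
      intro a b
      rw [hB.add_left, hB.smul_left, hB.smul_left, hself u, mul_zero, zero_add, hpc w u]
    have hexp2 : ∀ a b : F,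
        QuadraticMap.polar Q (a • u + b • w) w = a * QuadraticMap.polar Q u w := by
      intro a b
      rw [hB.add_left, hB.smul_left, hB.smul_left, hself w, mul_zero, add_zero]
    obtain ⟨P, hPdef⟩ : ∃ P : Submodule F (ι → F), P = Submodule.span F {u, w} := ⟨_, rfl⟩
    have huP : u ∈ P := by
      rw [hPdef]
      exact Submodule.subset_span (by simp)
    have hwP : w ∈ P := by
      rw [hPdef]
      exact Submodule.subset_span (by simp)
    have hPC : P ≤ C := by
      rw [hPdef, Submodule.span_le]
      intro z hz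
      simp only [Set.mem_insert_iff, Set.mem_singleton_iff] at hz
      rcases hz with rfl | rfl
      · exact huC
      · exact hwC
    have hPnd : Nd Q P := by
      intro z hz hz0
      rw [hPdef] at hz
      obtain ⟨a, b, rfl⟩ := Submodule.mem_span_pair.mp hz
      by_cases hb : b = 0
      · have ha : a ≠ 0 := by
          rintro rfl
          apply hz0
          rw [hb]
          simp
        have key : QuadraticMap.polar Q (a • u + b • w) w ≠ 0 := by
          rw [hexp2]
          exact mul_ne_zero ha hBuw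
        exact ⟨⟨w, hwP, by rw [hpc]; exact key⟩, ⟨w, hwP, key⟩⟩
      · have key : QuadraticMap.polar Q (a • u + b • w) u ≠ 0 := by
          rw [hexp1]
          exact mul_ne_zero hb hBuw
        exact ⟨⟨u, huP, by rw [hpc]; exact key⟩, ⟨u, huP, key⟩⟩
    have hli : LinearIndependent F ![u, w] := by
      rw [LinearIndependent.pair_iff]
      intro s t hst
      have e1 := hexp1 s t
      have e2 := hexp2 s t
      rw [hst, hz0l] at e1 e2
      refine ⟨?_, ?_⟩
      · rcases mul_eq_zero.mp e2.symm with h | h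
        · exact h
        · exact absurd h hBuw
      · rcases mul_eq_zero.mp e1.symm with h | h
        · exact h
        · exact absurd h hBuw
    have hfrP : finrank F P = 2 := by
      rw [hPdef]
      have h := finrank_span_eq_card hli
      rw [Matrix.range_cons_cons_empty] at h
      rw [h]
      simp
    have hPplus : Plus Q P := by
      refine ⟨Submodule.span F {u}, ?_, ?_, ?_⟩
      · rw [Submodule.span_singleton_le_iff_mem]
        exact huP
      · intro z hz
        obtain ⟨c, rfl⟩ := Submodule.mem_span_singleton.mp hz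
        rw [hQ.smul, hQu', mul_zero]
      · rw [finrank_span_singleton hu0, hfrP]
    -- the orthogonal complement of `P` in `C`
    have hInv1 : ∀ W : Submodule F (ι → F), Inv (1 : Matrix ι ι F) W := by
      intro W
      unfold Cfsg.Agent.Lib.Helper23.OHyp.Inv
      rw [Matrix.toLin'_one, Submodule.map_id]
    obtain ⟨C₁, hC₁C, -, hC₁nd, hperp, -, hfr⟩ :=
      Cfsg.Agent.Lib.Helper87.OHyp.pkgPerp F ι Q hQ 1 (by simp) (by simp) C P hPC (hInv1 C)
        (hInv1 P) hC hPnd
    obtain ⟨W₁, hW₁C, hW₁nd, hW₁plus, hW₁fr⟩ := ih C₁ hC₁nd (by omega)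
    have hperp' : Perp Q P W₁ := fun a ha b hb => hperp a ha b (hW₁C hb)
    obtain ⟨h1, h2', h3⟩ := pkgSumPlus F ι Q hQ P W₁ hPnd hW₁nd hperp' hPplus hW₁plus
    refine ⟨P ⊔ W₁, sup_le hPC (hW₁C.trans hC₁C), h1, h2', ?_⟩
    rw [h3, hfrP, hW₁fr]
    omega

end Cfsg.Agent.Lib.Helper20.PHyp
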