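import Mathlib
import Cfsg.Agent.Lib.Helper12.PHyp.T2EDefs
import Cfsg.Agent.Lib.Helper36.AltEven
import Cfsg.Agent.Lib.Helper94.Refl

/-!
# PHYP (S5974), regime [T2E], package [NDEVEN]: in characteristic 2 a subspace on which the polar
form is nondegenerate has even dimension (the polar form is alternating).
-/

set_option autoImplicit false

namespace Cfsg.Agent.Lib.Helper20.PHyp

open Cfsg.Agent.Lib.Helper23.OHyp Cfsg.Agent.Lib.Helper12.PHyp

universe u

theorem pkgNdEven : PkgNdEven.{u} := by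
  intro F _ ι _ _ Q hQ h2 W hW
  classical
  obtain ⟨B, hBapp⟩ : ∃ B : LinearMap.BilinForm F ↥W,
      ∀ u v : ↥W, B u v = QuadraticMap.polar Q (u : ι → F) (v : ι → F) :=
    ⟨LinearMap.mk₂ F (fun u v : ↥W => QuadraticMap.polar Q (u : ι → F) (v : ι → F))
      (fun u u' v => hQ.polar_bilinear.add_left _ _ _)
      (fun c u v => hQ.polar_bilinear.smul_left c _ _)
      (fun u v v' => hQ.polar_bilinear.add_right _ _ _)
      (fun c u v => hQ.polar_bilinear.smul_right c _ _), fun u v => rfl⟩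
  have hAlt : B.IsAlt := by
    intro u
    rw [hBapp]
    have h := Cfsg.Agent.Lib.Helper94.pol_self hQ (u : ι → F)
    rw [h2, zero_mul] at h
    exact h
  have hker : LinearMap.ker B = ⊥ := by
    rw [Submodule.eq_bot_iff]
    intro u hu
    by_contra hne
    have hne' : (u : ι → F) ≠ 0 := fun h => hne (Subtype.ext h)
    obtain ⟨-, x, hx, hxne⟩ := hW (u : ι → F) u.2 hne'
    apply hxne
    have h := LinearMap.congr_fun (LinearMap.mem_ker.mp hu) ⟨x, hx⟩
    rw [hBapp] at h
    exact h
  obtain ⟨k, hk⟩ := Cfsg.Agent.Lib.Helper36.alt_finrank_aux F (Module.finrank F ↥W) ↥W B hAlt rfl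
  rw [hker, finrank_bot, zero_add] at hk
  exact ⟨k, by rw [hk]; ring⟩

end Cfsg.Agent.Lib.Helper20.PHyp
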