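import Mathlib
import Cfsg.Agent.Lib.Helper12.PHyp.T2EDefs
import Cfsg.Agent.Lib.Helper84.OPar.PlusQ

/-!
# PHYP (S5974), regime [T2E], package [PLUSTOP]: the whole space of `quadFormPlus` is
nondegenerate of plus type (any characteristic).
-/

set_option autoImplicit false

namespace Cfsg.Agent.Lib.Helper20.PHyp

open Cfsg.Agent.Lib.Helper23.OHyp Cfsg.Agent.Lib.Helper12.PHyp

universe u

theorem pkgPlusTop : PkgPlusTop.{u} := by
  intro F _ d
  have hQ := Cfsg.Agent.Lib.Helper12.OHyp.nondeg_quadFormPlus (F := F) d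
  refine ⟨?_, ?_⟩
  · intro w _ hw
    obtain ⟨⟨x, hx⟩, ⟨y, hy⟩⟩ := hQ.nondegenerate w hw
    exact ⟨⟨x, Submodule.mem_top, hx⟩, ⟨y, Submodule.mem_top, hy⟩⟩
  · refine ⟨LinearMap.range (Cfsg.Agent.Lib.Helper84.OPar.inlMap F d), le_top, ?_, ?_⟩
    · intro w hw
      obtain ⟨f, rfl⟩ := hw
      simp [Cfsg.quadFormPlus, Cfsg.Agent.Lib.Helper84.OPar.inlMap]
    · rw [LinearMap.finrank_range_of_inj (Cfsg.Agent.Lib.Helper84.OPar.inlMap_injective F d)]
      simp
      omega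

end Cfsg.Agent.Lib.Helper20.PHyp
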